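import Mathlib
import Cfsg.Prelude.Def_TwoFusion
import Cfsg.Prelude.Def_Involutions
import Cfsg.Prelude.Def_PLocal
import Cfsg.Agent.Lib.KleinGen
import Cfsg.Agent.H880.TI

/-!
# Involutions with a unique fixed point on `G / H`: abstract lemmas

`UF H x`: every `g` with `g x g⁻¹ ∈ H` lies in `H`. Three lemmas, with the Z*-theorem, the theorem on strongly closed
2-subgroups all of whose centralizers lie in a proper subgroup (S3289) and S1225 as hypotheses:
`centr_two` (product of two commuting UF involutions), `centr_many` (central products of more involutions) and `final`.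
-/

set_option autoImplicit false
open Subgroup
open scoped Pointwise

namespace Cfsg.Agent.H205.EvenTI

universe u

/-- Glauberman's Z*-theorem in universe `u` (`Cfsg.Agent.S0215.result`). -/
def ZStar : Prop := ∀ (G : Type u) [Group G] [Finite G] (P : Sylow 2 G) (x : G), orderOf x = 2 → x ∈ P →
  (∀ g : G, g * x * g⁻¹ ∈ P → g * x * g⁻¹ = x) →
    ∃ N : Subgroup G, N.Normal ∧ Odd (Nat.card N) ∧ ∀ g : G, (x * g * x⁻¹ * g⁻¹) ∈ N

/-- The part of `Cfsg.Agent.S3289.result` which is used, in universe `u`. -/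
def StrClosed : Prop := ∀ (G : Type u) [Group G] [Finite G] (T : Sylow 2 G) (S : Subgroup G), S ≠ ⊥ →
    Cfsg.IsStronglyClosed S (T : Subgroup G) → ∀ (H : Subgroup G), H ≠ ⊤ →
    (∀ s ∈ S, s ≠ 1 → Subgroup.centralizer ({s} : Set G) ≤ H) →
    Subgroup.normalizer ((Cfsg.omegaOne 2 S : Subgroup G) : Set G) ≤ H →
    Cfsg.IsStronglyEmbedded ((H ⊓ Subgroup.normalClosure (S : Set G)).subgroupOf (Subgroup.normalClosure (S : Set G))) ∧
      (S = (T : Subgroup G) ⊓ Subgroup.normalClosure (S : Set G) ∨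
        S = Cfsg.omegaOne 2 ((T : Subgroup G) ⊓ Subgroup.normalClosure (S : Set G)))

/-- The part of `Cfsg.Agent.S1225.result` which is used, in universe `u`. -/
def SEConj : Prop := ∀ (G : Type u) [Group G] [Finite G] (H : Subgroup G), Cfsg.IsStronglyEmbedded H →
  ∀ (x : G), orderOf x = 2 → x ∉ H → ∀ (s t : G), orderOf s = 2 → s ∈ H → orderOf t = 2 → t ∈ H →
    ∃ d ∈ H, d * s * d⁻¹ = t

/-- `x` lies in no conjugate of `H` other than (possibly) `H`. -/
def UF {G : Type*} [Group G] (H : Subgroup G) (x : G) : Prop := ∀ g : G, g * x * g⁻¹ ∈ H → g ∈ H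

variable {G : Type u} [Group G]

theorem UF.cent {H : Subgroup G} {x : G} (h : UF H x) (hx : x ∈ H) {g : G} (hg : Commute g x) : g ∈ H := by
  apply h
  rw [hg.eq, mul_inv_cancel_right]; exact hx

theorem ord2 {x : G} (h2 : x * x = 1) (h1 : x ≠ 1) : orderOf x = 2 :=
  orderOf_eq_prime (by rw [sq, h2]) h1

theorem zp2 {x n : G} (hx : x * x = 1) (hn : n ∈ zpowers x) : n = 1 ∨ n = x := by
  obtain ⟨k, rfl⟩ := hn
  rcases Int.even_or_odd k with ⟨m, rfl⟩ | ⟨m, rfl⟩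
  · left; show x ^ (m + m) = 1
    rw [← two_mul, zpow_mul, zpow_two, hx, one_zpow]
  · right; show x ^ (2 * m + 1) = x
    rw [zpow_add, zpow_mul, zpow_two, hx, one_zpow, one_mul, zpow_one]

theorem isPGroup_of_sq {B : Subgroup G} (hB : ∀ b ∈ B, b * b = 1) : IsPGroup 2 B := by
  intro b
  exact ⟨1, Subtype.ext (by simpa [sq] using hB b b.2)⟩

theorem isPGroup_zp2 {x : G} (hx : x * x = 1) : IsPGroup 2 (zpowers x) :=
  isPGroup_of_sq (fun b hb => by rcases zp2 hx hb with rfl | rfl <;> simp [hx])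

/-- A 2-subgroup containing a UF element of `H` lies in `H`. -/
theorem two_group_le [Finite G] (H L : Subgroup G) (hL : IsPGroup 2 L) {x : G} (hxL : x ∈ L) (hxH : x ∈ H)
    (hx : UF H x) : L ≤ H := by
  obtain ⟨k, hk⟩ := hL ⟨x, hxL⟩
  have hk' : x ^ 2 ^ k = 1 := by simpa using congrArg Subtype.val hk
  intro l hl
  have h := H880.pgroup_fixes (M := G) (p := 2) H {x}
    (by rintro s rfl; exact ⟨hxH, k, hk'⟩) (by rintro s rfl g hg; exact hx g hg) (s := x) rfl 1 L hL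
    (by simpa using hxL) l hl
  have h2 : ((l * 1 : G) : G ⧸ H) = ((1 : G) : G ⧸ H) := h
  rw [eq_comm, QuotientGroup.eq] at h2
  simpa using h2

/-- A `p`-element of a subgroup `K` containing the Sylow subgroup `P` is conjugate in `K` to an element of `P`. -/
theorem conj_into [Finite G] {p : ℕ} [Fact p.Prime] (P : Sylow p G) (K : Subgroup G) (hP : (P : Subgroup G) ≤ K) {x : G}
    (hx : x ∈ K) (hxp : IsPGroup p (zpowers x)) : ∃ c ∈ K, c * x * c⁻¹ ∈ P := by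
  let P' : Sylow p K := P.subtype hP
  have h1 : IsPGroup p (zpowers (⟨x, hx⟩ : K)) := by
    intro y
    obtain ⟨y, k, rfl⟩ := y
    obtain ⟨m, hm⟩ := hxp ⟨x ^ k, ⟨k, rfl⟩⟩
    refine ⟨m, Subtype.ext (Subtype.ext ?_)⟩
    simpa using congrArg Subtype.val hm
  obtain ⟨Q, hQ⟩ := h1.exists_le_sylow
  obtain ⟨c, hc⟩ := MulAction.exists_smul_eq K Q P'
  have h2 : c * ⟨x, hx⟩ * c⁻¹ ∈ (P' : Subgroup K) := by
    have h4 : c * ⟨x, hx⟩ * c⁻¹ ∈ ((c • Q : Sylow p K) : Subgroup K) := by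
      have h5 : c * ⟨x, hx⟩ * c⁻¹ ∈ (MulAut.conj c • (Q : Subgroup K)) := by
        rw [Subgroup.mem_pointwise_smul_iff_inv_smul_mem]
        have : (MulAut.conj c)⁻¹ • (c * (⟨x, hx⟩ : K) * c⁻¹) = ⟨x, hx⟩ := by
          rw [← map_inv]; simp [MulAut.smul_def, mul_assoc]
        rw [this]; exact hQ (mem_zpowers _)
      exact h5
    rw [hc] at h4; exact h4
  have h6 : ((c * ⟨x, hx⟩ * c⁻¹ : K) : G) ∈ (P : Subgroup G) := by
    rw [Sylow.coe_subtype] at h2
    exact h2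
  exact ⟨c, c.2, h6⟩

/-- The subgroup generated by a central involution of `C`. -/
theorem normal_zp {C : Type*} [Group C] {z : C} (hz : ∀ g : C, g * z = z * g) : (zpowers z).Normal := by
  refine ⟨fun n hn g => ?_⟩
  obtain ⟨k, rfl⟩ := hn
  have : g * z ^ k * g⁻¹ = z ^ k := by
    have h : Commute g (z ^ k) := (show Commute g z from hz g).zpow_right k
    rw [h.eq, mul_inv_cancel_right]
  show g * z ^ k * g⁻¹ ∈ _
  rw [this]; exact ⟨k, rfl⟩

/-- Coset of a subgroup containing the kernel. -/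
theorem mem_of_mk {C : Type*} [Group C] (Z K : Subgroup C) [Z.Normal] (hZK : Z ≤ K) {x : C}
    (hx : QuotientGroup.mk' Z x ∈ K.map (QuotientGroup.mk' Z)) : x ∈ K := by
  obtain ⟨h, hh, e⟩ := hx
  have h1 : h⁻¹ * x ∈ Z := QuotientGroup.eq.mp e
  have h2 := K.mul_mem hh (hZK h1)
  rwa [mul_inv_cancel_left] at h2

/-- **The centraliser of the product of two commuting UF involutions.** -/
theorem centr_two (hZ : ZStar.{u}) [Finite G] (H : Subgroup G) {a b : G} (ha2 : a * a = 1) (ha1 : a ≠ 1)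
    (hb2 : b * b = 1) (hb1 : b ≠ 1) (hc : Commute a b) (haH : a ∈ H) (hbH : b ∈ H) (ua : UF H a)
    (hf : ∀ g, Commute g (a * b) → g * a * g⁻¹ ∈ H → g * a * g⁻¹ = a ∨ g * a * g⁻¹ = b)
    {e f : G} (he : e * e = 1) (hff : f * f = 1) (hef : Commute e f) (heH : e ∈ H) (hfH : f ∈ H) (ue : UF H e)
    (uf : UF H f) (uef : UF H (e * f)) (hey : Commute e (a * b)) (hfy : Commute f (a * b)) :
    ∀ g, Commute g (a * b) → g ∈ H := by
  classical
  have hyy : (a * b) * (a * b) = 1 := by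
    calc (a * b) * (a * b) = a * (b * a) * b := by group
      _ = a * (a * b) * b := by rw [hc.eq]
      _ = (a * a) * (b * b) := by group
      _ = 1 := by rw [ha2, hb2, one_mul]
  have hya : Commute a (a * b) := (Commute.refl a).mul_right hc
  have hyb : Commute b (a * b) := hc.symm.mul_right (Commute.refl b)
  have hyH : a * b ∈ H := H.mul_mem haH hbH
  generalize hyd : a * b = y at *
  let C : Subgroup G := centralizer {y}
  have memC : ∀ g, Commute g y → g ∈ C := fun g hg => mem_centralizer_singleton_iff.2 hg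
  have ofC : ∀ g ∈ C, Commute g y := fun g hg => mem_centralizer_singleton_iff.1 hg
  let yC : C := ⟨y, memC y (Commute.refl y)⟩
  have hyCc : ∀ g : C, g * yC = yC * g := fun g => Subtype.ext (ofC g g.2)
  have hyC2 : yC * yC = 1 := Subtype.ext hyy
  let Z : Subgroup C := zpowers yC
  have : Z.Normal := normal_zp hyCc
  have hZel : ∀ z : C, z ∈ Z → z = 1 ∨ z = yC := fun z hz => zp2 hyC2 hz
  let π := QuotientGroup.mk' Z
  have hπ : ∀ x z : C, π x = π z → (z : G) = x ∨ (z : G) = x * y := by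
    intro x z h
    have h1 : x⁻¹ * z ∈ Z := QuotientGroup.eq.mp h
    rcases hZel _ h1 with h2 | h2
    · left
      have := congrArg (Subtype.val) (congrArg (fun t => x * t) h2)
      simpa using this
    · right
      have := congrArg (Subtype.val) (congrArg (fun t => x * t) h2)
      simpa using this
  let HC : Subgroup C := H.subgroupOf C
  have hZH : Z ≤ HC := by
    intro z hz
    rcases hZel z hz with rfl | rfl
    · exact HC.one_mem
    · exact hyH
  -- a UF element commuting modulo `y`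
  have key : ∀ x : C, (x : G) ∈ H → UF H (x : G) → ∀ n : C, π n * π x = π x * π n → (n : G) ∈ H := by
    intro x hx hu n hn
    have h1 : π x = π (n * x * n⁻¹) := by
      rw [map_mul, map_mul, hn, map_inv, mul_inv_cancel_right]
    rcases hπ _ _ h1 with h2 | h2
    · exact hu n (by have : (n : G) * x * (n : G)⁻¹ = x := h2
                     rw [this]; exact hx)
    · exact hu n (by have : (n : G) * x * (n : G)⁻¹ = x * y := h2
                     rw [this]; exact H.mul_mem hx hyH)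
  let aC : C := ⟨a, memC a hya⟩
  have haC2 : aC * aC = 1 := Subtype.ext ha2
  obtain ⟨T, hT⟩ := (isPGroup_zp2 haC2).exists_le_sylow
  have haT : aC ∈ (T : Subgroup C) := hT (mem_zpowers _)
  have hTH : ∀ t ∈ (T : Subgroup C), (t : G) ∈ H := by
    intro t ht
    have h1 : IsPGroup 2 ((T : Subgroup C).map C.subtype) := T.isPGroup'.map _
    exact two_group_le H _ h1 (x := a) ⟨aC, haT, rfl⟩ haH ua ⟨t, ht, rfl⟩
  -- `y ∈ T`
  have hZT : Z ≤ T := by
    have h1 : IsPGroup 2 ((T : Subgroup C) ⊔ Z : Subgroup C) :=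
      T.isPGroup'.to_sup_of_normal_right (isPGroup_zp2 hyC2)
    have h2 := T.is_maximal' h1 le_sup_left
    rw [← h2]; exact le_sup_right
  have hsurj : Function.Surjective π := QuotientGroup.mk'_surjective Z
  let T' : Sylow 2 (C ⧸ Z) := T.mapSurjective hsurj
  have hT' : (T' : Subgroup (C ⧸ Z)) = (T : Subgroup C).map π := rfl
  have ha' : π aC * π aC = 1 := by rw [← map_mul, haC2, map_one]
  have ha'1 : π aC ≠ 1 := by
    intro h
    rcases hπ 1 aC (by rw [h, map_one]) with h2 | h2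
    · exact ha1 h2
    · apply hb1
      have h3 : a = y := by simpa using h2
      rw [← hyd] at h3
      exact (mul_eq_left.mp h3.symm)
  obtain ⟨N, hN, hNo, hNc⟩ := hZ (C ⧸ Z) T' (π aC) (ord2 ha' ha'1) ⟨aC, haT, rfl⟩ (by
    intro g hg
    obtain ⟨g, rfl⟩ := hsurj g
    rw [← map_inv, ← map_mul, ← map_mul] at hg ⊢
    have h1 : g * aC * g⁻¹ ∈ (T : Subgroup C) := mem_of_mk Z T hZT hg
    have h2 := hTH _ h1
    rcases hf g (ofC g g.2) h2 with h3 | h3
    · exact congrArg π (Subtype.ext h3)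
    · rw [QuotientGroup.mk'_apply, QuotientGroup.mk'_apply, QuotientGroup.eq]
      have h4 : (g * aC * g⁻¹)⁻¹ * aC = yC := by
        apply Subtype.ext
        show ((g : G) * a * (g : G)⁻¹)⁻¹ * a = y
        rw [h3, ← hyd, inv_eq_of_mul_eq_one_left hb2]
        exact hc.eq.symm
      rw [h4]; exact mem_zpowers _)
  let H' : Subgroup (C ⧸ Z) := HC.map π
  let eC : C := ⟨e, memC e hey⟩
  let fC : C := ⟨f, memC f hfy⟩
  have hNH : N ≤ H' := by
    apply Cfsg.Agent.Lib.KleinGen.le_of_klein N H' hNo (π eC) (π fC)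
    · rw [← map_mul, show eC * eC = 1 from Subtype.ext he, map_one]
    · rw [← map_mul, show fC * fC = 1 from Subtype.ext hff, map_one]
    · rw [← map_mul, ← map_mul, show eC * fC = fC * eC from Subtype.ext hef]
    · intro h hh; exact hN.conj_mem h hh _
    · intro h hh; exact hN.conj_mem h hh _
    · rintro n ⟨-, hn⟩
      obtain ⟨n, rfl⟩ := hsurj n
      exact ⟨n, key eC heH ue n (mem_centralizer_singleton_iff.1 hn), rfl⟩
    · rintro n ⟨-, hn⟩
      obtain ⟨n, rfl⟩ := hsurj n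
      exact ⟨n, key fC hfH uf n (mem_centralizer_singleton_iff.1 hn), rfl⟩
    · rintro n ⟨-, hn⟩
      obtain ⟨n, rfl⟩ := hsurj n
      refine ⟨n, key (eC * fC) (H.mul_mem heH hfH) uef n ?_, rfl⟩
      rw [map_mul]; exact mem_centralizer_singleton_iff.1 hn
  intro g hg
  have h1 := hNH (hNc (π ⟨g, memC g hg⟩))
  rw [← map_inv, ← map_inv, ← map_mul, ← map_mul, ← map_mul] at h1
  have h2 : a * g * a⁻¹ * g⁻¹ ∈ H := mem_of_mk Z HC hZH h1
  apply ua
  have h3 : g * a⁻¹ * g⁻¹ = a⁻¹ * (a * g * a⁻¹ * g⁻¹) := by group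
  have h4 : g * a⁻¹ * g⁻¹ ∈ H := by rw [h3]; exact H.mul_mem (H.inv_mem haH) h2
  have h5 : g * a * g⁻¹ = (g * a⁻¹ * g⁻¹)⁻¹ := by group
  rw [h5]; exact H.inv_mem h4

/-- **The centraliser of an involution `s` of an elementary abelian 2-group `A ≤ H`** all of whose elements other than
`1, s` are UF, if two of them are not conjugate in `C_H(s)` modulo `s` except by elements producing new involutions. -/
theorem centr_many (hS : StrClosed.{u}) (hE : SEConj.{u}) [Finite G] (H : Subgroup G) {s : G} (hs2 : s * s = 1)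
    (A : Subgroup G) (hAH : A ≤ H) (hsA : s ∈ A) (hA2 : ∀ a ∈ A, a * a = 1) (hAs : ∀ a ∈ A, Commute a s)
    (hU : ∀ a ∈ A, a ≠ 1 → a ≠ s → UF H a)
    (hnorm : ∀ g ∈ H, Commute g s → ∀ a ∈ A, g * a * g⁻¹ ∈ A)
    {a₁ a₂ : G} (h1A : a₁ ∈ A) (h2A : a₂ ∈ A) (h11 : a₁ ≠ 1) (h1s : a₁ ≠ s) (h21 : a₂ ≠ 1) (h2s : a₂ ≠ s)
    (hnew : ∀ g ∈ H, Commute g s → (g * a₁ * g⁻¹ = a₂ ∨ g * a₁ * g⁻¹ = a₂ * s) →
      ∃ e ∈ H, Commute e s ∧ e * (g * e⁻¹ * g⁻¹) ∉ A ∧ (e * (g * e⁻¹ * g⁻¹)) * (e * (g * e⁻¹ * g⁻¹)) = 1) :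
    ∀ g, Commute g s → g ∈ H := by
  classical
  by_contra hcon
  push Not at hcon
  obtain ⟨g₀, hg₀, hg₀H⟩ := hcon
  have hsH : s ∈ H := hAH hsA
  let C : Subgroup G := centralizer {s}
  have memC : ∀ g, Commute g s → g ∈ C := fun g hg => mem_centralizer_singleton_iff.2 hg
  have ofC : ∀ g ∈ C, Commute g s := fun g hg => mem_centralizer_singleton_iff.1 hg
  let yC : C := ⟨s, memC s (Commute.refl s)⟩
  have hyCc : ∀ g : C, g * yC = yC * g := fun g => Subtype.ext (ofC g g.2)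
  have hyC2 : yC * yC = 1 := Subtype.ext hs2
  let Z : Subgroup C := zpowers yC
  have : Z.Normal := normal_zp hyCc
  have hZel : ∀ z : C, z ∈ Z → z = 1 ∨ z = yC := fun z hz => zp2 hyC2 hz
  let π := QuotientGroup.mk' Z
  have hsurj : Function.Surjective π := QuotientGroup.mk'_surjective Z
  have hπ : ∀ x z : C, π x = π z → (z : G) = x ∨ (z : G) = x * s := by
    intro x z h
    have h1 : x⁻¹ * z ∈ Z := QuotientGroup.eq.mp h
    rcases hZel _ h1 with h2 | h2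
    · left
      have := congrArg (Subtype.val) (congrArg (fun t => x * t) h2)
      simpa using this
    · right
      have := congrArg (Subtype.val) (congrArg (fun t => x * t) h2)
      simpa using this
  let HC : Subgroup C := H.subgroupOf C
  have hZH : Z ≤ HC := by
    intro z hz
    rcases hZel z hz with rfl | rfl
    · exact HC.one_mem
    · exact hsH
  let AC : Subgroup C := A.subgroupOf C
  have hZA : Z ≤ AC := by
    intro z hz
    rcases hZel z hz with rfl | rfl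
    · exact AC.one_mem
    · exact hsA
  have hACH : AC ≤ HC := fun x hx => hAH hx
  have hAC2 : ∀ a ∈ AC, a * a = 1 := fun a ha => Subtype.ext (hA2 a ha)
  obtain ⟨T, hT⟩ := (isPGroup_of_sq hAC2).exists_le_sylow
  have hTH : (T : Subgroup C) ≤ HC := by
    intro t ht
    have h1 : IsPGroup 2 ((T : Subgroup C).map C.subtype) := T.isPGroup'.map _
    exact two_group_le H _ h1 (x := a₁) ⟨⟨a₁, memC _ (hAs _ h1A)⟩, hT (show (⟨a₁, _⟩ : C) ∈ AC from h1A), rfl⟩ (hAH h1A)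
      (hU _ h1A h11 h1s) ⟨t, ht, rfl⟩
  have hZT : Z ≤ T := hZA.trans hT
  let T' : Sylow 2 (C ⧸ Z) := T.mapSurjective hsurj
  have hT' : (T' : Subgroup (C ⧸ Z)) = (T : Subgroup C).map π := rfl
  let A' : Subgroup (C ⧸ Z) := AC.map π
  let H' : Subgroup (C ⧸ Z) := HC.map π
  -- nontrivial elements of `A'`
  have hnt : ∀ a : C, π a ≠ 1 → (a : G) ≠ 1 ∧ (a : G) ≠ s := by
    intro a ha
    refine ⟨fun h => ha ?_, fun h => ha ?_⟩
    · rw [show a = 1 from Subtype.ext h, map_one]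
    · rw [show a = yC from Subtype.ext h]
      exact (QuotientGroup.eq_one_iff yC).2 (mem_zpowers yC)
  have hnt' : ∀ a : C, (a : G) ≠ 1 → (a : G) ≠ s → π a ≠ 1 := by
    intro a h1 h2 h3
    rcases hπ 1 a (by rw [h3, map_one]) with h4 | h4
    · exact h1 h4
    · exact h2 (by simpa using h4)
  -- conjugating an element of `A` into `H` (modulo `s`)
  have key : ∀ a : C, a ∈ AC → π a ≠ 1 → ∀ g : C, π (g * a * g⁻¹) ∈ H' → (g : G) ∈ H := by
    intro a ha h1 g hg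
    obtain ⟨h2, h3⟩ := hnt a h1
    exact hU _ ha h2 h3 g (mem_of_mk Z HC hZH hg)
  let a₁C : C := ⟨a₁, memC _ (hAs _ h1A)⟩
  let a₂C : C := ⟨a₂, memC _ (hAs _ h2A)⟩
  have ha₁' : π a₁C ≠ 1 := hnt' a₁C h11 h1s
  have ha₂' : π a₂C ≠ 1 := hnt' a₂C h21 h2s
  have hsc : Cfsg.IsStronglyClosed A' (T' : Subgroup (C ⧸ Z)) := by
    refine ⟨Subgroup.map_mono hT, ?_⟩
    rintro _ ⟨a, ha, rfl⟩ g hg
    obtain ⟨g, rfl⟩ := hsurj g
    have hg' : π (g * a * g⁻¹) ∈ (T : Subgroup C).map π := by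
      rw [map_mul, map_mul, map_inv]; exact hg
    by_cases h1 : π a = 1
    · rw [h1]; simp
    · have h2 : (g : G) ∈ H := key a ha h1 g (Subgroup.map_mono hTH hg')
      have h3 : g * a * g⁻¹ ∈ AC := hnorm g h2 (ofC g g.2) a ha
      refine ⟨g * a * g⁻¹, h3, ?_⟩
      rw [map_mul, map_mul, map_inv]
  have hom : A' ≤ Cfsg.omegaOne 2 A' := by
    rintro _ ⟨a, ha, rfl⟩
    apply Subgroup.subset_closure
    refine ⟨⟨a, ha, rfl⟩, ?_⟩
    rw [sq, ← map_mul, hAC2 a ha, map_one]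
  have hom' : Cfsg.omegaOne 2 A' ≤ A' := (closure_le _).2 (fun x hx => hx.1)
  have hproper : H' ≠ ⊤ := by
    intro h
    apply hg₀H
    exact mem_of_mk Z HC hZH (x := ⟨g₀, memC _ hg₀⟩) (by
      show _ ∈ H'
      rw [h]; exact mem_top _)
  obtain ⟨hSE, hcl⟩ := hS (C ⧸ Z) T' A' (by
      intro h
      apply ha₁'
      have : π a₁C ∈ A' := ⟨a₁C, h1A, rfl⟩
      rw [h] at this
      exact mem_bot.1 this) hsc H' hproper (by
      rintro _ ⟨a, ha, rfl⟩ h1 g hg
      obtain ⟨g, rfl⟩ := hsurj g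
      have h2 : π g * π a = π a * π g := mem_centralizer_singleton_iff.1 hg
      refine ⟨g, key a ha h1 g ?_, rfl⟩
      rw [map_mul, map_mul, map_inv, h2, mul_inv_cancel_right]
      exact ⟨a, hACH ha, rfl⟩) (by
      intro g hg
      obtain ⟨g, rfl⟩ := hsurj g
      refine ⟨g, key a₁C h1A ha₁' g ?_, rfl⟩
      have h1 : π g * π a₁C * (π g)⁻¹ ∈ Cfsg.omegaOne 2 A' :=
        (mem_normalizer_iff.1 hg (π a₁C)).1 (hom ⟨a₁C, h1A, rfl⟩)
      rw [map_mul, map_mul, map_inv]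
      exact Subgroup.map_mono hACH (hom' h1))
  -- involutions of `T' ∩ N` lie in `A'`
  set N := Subgroup.normalClosure (A' : Set (C ⧸ Z)) with hN
  have hAN : A' ≤ N := subset_normalClosure
  have hNn : N.Normal := normalClosure_normal
  have hinv : ∀ x, x ∈ (T' : Subgroup (C ⧸ Z)) → x ∈ N → x * x = 1 → x ∈ A' := by
    intro x h1 h2 h3
    rcases hcl with h4 | h4
    · rw [h4]; exact ⟨h1, h2⟩
    · rw [h4]; exact Subgroup.subset_closure ⟨⟨h1, h2⟩, by rw [sq]; exact h3⟩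
  have ho : ∀ x : C ⧸ Z, x * x = 1 → x ≠ 1 → ∀ hx : x ∈ N, orderOf (⟨x, hx⟩ : N) = 2 := by
    intro x h1 h2 hx
    exact ord2 (Subtype.ext h1) (fun h => h2 (congrArg Subtype.val h))
  have hsq : ∀ a ∈ AC, π a * π a = 1 := fun a ha => by rw [← map_mul, hAC2 a ha, map_one]
  let g₀C : C := ⟨g₀, memC _ hg₀⟩
  have hu : π (g₀C * a₁C * g₀C⁻¹) ∈ N := by
    rw [map_mul, map_mul, map_inv]
    exact hNn.conj_mem _ (hAN ⟨a₁C, h1A, rfl⟩) _
  have hu2 : π (g₀C * a₁C * g₀C⁻¹) * π (g₀C * a₁C * g₀C⁻¹) = 1 := by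
    rw [← map_mul]
    have : (g₀C * a₁C * g₀C⁻¹) * (g₀C * a₁C * g₀C⁻¹) = g₀C * (a₁C * a₁C) * g₀C⁻¹ := by group
    rw [this, hAC2 a₁C h1A]; simp
  have hu1 : π (g₀C * a₁C * g₀C⁻¹) ≠ 1 := by
    rw [map_mul, map_mul, map_inv]
    intro h
    exact ha₁' (conj_eq_one_iff.1 h)
  obtain ⟨d, hd, hdc⟩ := hE N _ hSE ⟨_, hu⟩ (ho _ hu2 hu1 hu)
    (by
      intro h
      exact hg₀H (key a₁C h1A ha₁' g₀C h.1))
    ⟨π a₁C, hAN ⟨a₁C, h1A, rfl⟩⟩ ⟨π a₂C, hAN ⟨a₂C, h2A, rfl⟩⟩ (ho _ (hsq _ h1A) ha₁' _)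
    ⟨⟨a₁C, hACH h1A, rfl⟩, hAN ⟨a₁C, h1A, rfl⟩⟩ (ho _ (hsq _ h2A) ha₂' _)
    ⟨⟨a₂C, hACH h2A, rfl⟩, hAN ⟨a₂C, h2A, rfl⟩⟩
  obtain ⟨d, hdN⟩ := d
  obtain ⟨⟨g, hgH, hgd⟩, -⟩ := hd
  have hgd' : π g = d := hgd
  subst hgd'
  have hdc' : π g * π a₁C * (π g)⁻¹ = π a₂C := congrArg Subtype.val hdc
  rw [← map_inv, ← map_mul, ← map_mul] at hdc'
  have h5 : (g : G) * a₁ * (g : G)⁻¹ = a₂ ∨ (g : G) * a₁ * (g : G)⁻¹ = a₂ * s := hπ _ _ hdc'.symm
  obtain ⟨e, heH, hes, hnA, hm2⟩ := hnew g hgH (ofC g g.2) h5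
  let eC : C := ⟨e, memC _ hes⟩
  let m : C := eC * (g * eC⁻¹ * g⁻¹)
  have hmN : π m ∈ N := by
    have h6 : π m = (π eC * π g * (π eC)⁻¹) * (π g)⁻¹ := by
      simp only [m, map_mul, map_inv, mul_assoc]
    rw [h6]
    exact N.mul_mem (hNn.conj_mem _ hdN _) (N.inv_mem hdN)
  have hmH : m ∈ HC := H.mul_mem heH (H.mul_mem (H.mul_mem hgH (H.inv_mem heH)) (H.inv_mem hgH))
  have hm2' : m * m = 1 := Subtype.ext hm2
  obtain ⟨c, hcH, hcT⟩ := conj_into T HC hTH hmH (isPGroup_zp2 hm2')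
  have h7 : π (c * m * c⁻¹) ∈ A' := by
    apply hinv
    · exact ⟨_, hcT, rfl⟩
    · rw [map_mul, map_mul, map_inv]; exact hNn.conj_mem _ hmN _
    · rw [← map_mul]
      have : (c * m * c⁻¹) * (c * m * c⁻¹) = c * (m * m) * c⁻¹ := by group
      rw [this, hm2']; simp
  have h8 : c * m * c⁻¹ ∈ AC := mem_of_mk Z AC hZA h7
  apply hnA
  have h9 := hnorm (c⁻¹ : G) (H.inv_mem hcH) (ofC _ (C.inv_mem c.2)) _ h8
  have h10 : (c : G)⁻¹ * ((c * m * c⁻¹ : C) : G) * ((c : G)⁻¹)⁻¹ = e * ((g : G) * e⁻¹ * (g : G)⁻¹) := by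
    simp [m, eC, mul_assoc]
  exact h10 ▸ h9

/-- **Conclusion**: if all involutions of the normal subgroup `X` of `H` are UF, then `H = G`, unless all involutions
of `X` are conjugate in `H`. -/
theorem final (hS : StrClosed.{u}) (hE : SEConj.{u}) [Finite G] (H X : Subgroup G) (hXH : X ≤ H)
    (hnorm : ∀ h ∈ H, ∀ x ∈ X, h * x * h⁻¹ ∈ X) (hU : ∀ x ∈ X, x * x = 1 → x ≠ 1 → UF H x)
    (B : Subgroup G) (hBX : B ≤ X) (hB2 : ∀ b ∈ B, b * b = 1) {x y : G} (hx : x ∈ B) (hy : y ∈ B) (hx1 : x ≠ 1)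
    (hy1 : y ≠ 1) (hne : ∀ g ∈ H, g * x * g⁻¹ ≠ y) : H = ⊤ := by
  classical
  by_contra hH
  obtain ⟨g₀, hg₀⟩ : ∃ g₀, g₀ ∉ H := by
    by_contra hcon
    push Not at hcon
    exact hH (eq_top_iff.2 (fun g _ => hcon g))
  have hxU : UF H x := hU x (hBX hx) (hB2 x hx) hx1
  obtain ⟨T, hT⟩ := (isPGroup_of_sq hB2).exists_le_sylow
  have hTH : (T : Subgroup G) ≤ H := two_group_le H _ T.isPGroup' (hT hx) (hXH (hBX hx)) hxU
  let S : Subgroup G := (T : Subgroup G) ⊓ X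
  have hBS : B ≤ S := le_inf hT hBX
  -- powers
  have hpow : ∀ z ∈ S, z ≠ 1 → ∃ k : ℕ, z ^ k ∈ X ∧ z ^ k * z ^ k = 1 ∧ z ^ k ≠ 1 := by
    intro z hz hz1
    obtain ⟨k, hk⟩ := T.isPGroup' ⟨z, hz.1⟩
    have hk' : z ^ 2 ^ k = 1 := by simpa using congrArg Subtype.val hk
    have hex : ∃ k, z ^ 2 ^ k = 1 := ⟨k, hk'⟩
    have h1 := Nat.find_spec hex
    have h2 : Nat.find hex ≠ 0 := by
      intro h
      rw [h] at h1
      exact hz1 (by simpa using h1)
    obtain ⟨l, hl⟩ := Nat.exists_eq_succ_of_ne_zero h2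
    refine ⟨2 ^ l, X.pow_mem hz.2 _, ?_, ?_⟩
    · rw [← pow_add, ← two_mul, ← pow_succ', ← Nat.succ_eq_add_one, ← hl]; exact h1
    · exact Nat.find_min hex (by omega)
  have key : ∀ z ∈ S, z ≠ 1 → UF H z := by
    intro z hz hz1 g hg
    obtain ⟨k, h1, h2, h3⟩ := hpow z hz hz1
    apply hU _ h1 h2 h3 g
    rw [← conj_pow]; exact H.pow_mem hg _
  have hsc : Cfsg.IsStronglyClosed S (T : Subgroup G) := by
    refine ⟨inf_le_left, ?_⟩
    intro z hz g hg
    by_cases h1 : z = 1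
    · rw [h1]; simp
    · exact ⟨hg, hnorm g (key z hz h1 g (hTH hg)) z hz.2⟩
  obtain ⟨hSE, -⟩ := hS G T S (by
      intro h
      apply hx1
      have := hBS hx
      rw [h] at this
      exact mem_bot.1 this) hsc H hH (by
      intro z hz h1 g hg
      exact (key z hz h1).cent (hTH hz.1) (mem_centralizer_singleton_iff.1 hg)) (by
      intro g hg
      apply hxU
      have h1 : g * x * g⁻¹ ∈ Cfsg.omegaOne 2 S :=
        (mem_normalizer_iff.1 hg x).1 (Subgroup.subset_closure ⟨hBS hx, by rw [sq]; exact hB2 x hx⟩)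
      have h2 : Cfsg.omegaOne 2 S ≤ S := (closure_le _).2 (fun x hx => hx.1)
      exact hTH (h2 h1).1)
  set N := Subgroup.normalClosure (S : Set G) with hN
  have hSN : S ≤ N := subset_normalClosure
  have hNn : N.Normal := normalClosure_normal
  have ho : ∀ x : G, x * x = 1 → x ≠ 1 → ∀ hx : x ∈ N, orderOf (⟨x, hx⟩ : N) = 2 := by
    intro x h1 h2 hx
    exact ord2 (Subtype.ext h1) (fun h => h2 (congrArg Subtype.val h))
  have hu : g₀ * x * g₀⁻¹ ∈ N := hNn.conj_mem _ (hSN (hBS hx)) _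
  obtain ⟨d, hd, hdc⟩ := hE N _ hSE ⟨_, hu⟩ (ho _ (by
      have : (g₀ * x * g₀⁻¹) * (g₀ * x * g₀⁻¹) = g₀ * (x * x) * g₀⁻¹ := by group
      rw [this, hB2 x hx]; simp) (fun h => hx1 (conj_eq_one_iff.1 h)) hu)
    (by
      intro h
      exact hg₀ (hxU g₀ h.1))
    ⟨x, hSN (hBS hx)⟩ ⟨y, hSN (hBS hy)⟩ (ho _ (hB2 x hx) hx1 _)
    ⟨hXH (hBX hx), hSN (hBS hx)⟩ (ho _ (hB2 y hy) hy1 _)
    ⟨hXH (hBX hy), hSN (hBS hy)⟩
  exact hne d hd.1 (congrArg Subtype.val hdc)

end Cfsg.Agent.H205.EvenTI
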