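import Cfsg.Agent.H205.EvenAbs

/-!
# Overgroups of a central product of `ι` groups `S`, permuted by `H`: the prime 2

`φ : (ι → S) →* G` with `φ f ∈ H`, `H` permuting the factors; `Δ ⊆ S` a set of involutions ("root elements").
If the root elements of the slots are TI (`UF`), and the centraliser of every involution of a slot is in `H`, and some
mild conditions hold (`Data`), then `H = ⊤` provided there are at least two slots.
-/

set_option autoImplicit false
set_option linter.unusedSectionVars false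
open Subgroup

namespace Cfsg.Agent.H205.EvenTI

universe u

section

variable {G : Type u} {S ι : Type*} [Group G] [Group S] [DecidableEq ι]

/-- `h` acts on the image of `φ` by permuting the slots by `π` and applying automorphisms. -/
def Acts (φ : (ι → S) →* G) (h : G) (π : Equiv.Perm ι) (θ : ι → S ≃* S) : Prop :=
  ∀ f, h * φ f * h⁻¹ = φ (fun j => θ j (f (π.symm j)))

structure Data (H : Subgroup G) (φ : (ι → S) →* G) (Δ : Set S) : Prop where
  mem : ∀ f, φ f ∈ H
  inj : ∀ f f', f * f = 1 → f' * f' = 1 → φ f = φ f' → f = f'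
  lift : ∀ f, φ f * φ f = 1 → ∃ f', f' * f' = 1 ∧ φ f' = φ f
  perm : ∀ h ∈ H, ∃ (π : Equiv.Perm ι) (θ : ι → S ≃* S), Acts φ h π θ
  inv : ∀ d ∈ Δ, d * d = 1 ∧ d ≠ 1
  four : ∀ s : S, s * s = 1 → s ≠ 1 → ∃ e ∈ Δ, ∃ f ∈ Δ, e * f ∈ Δ ∧ Commute e f ∧ Commute e s ∧ Commute f s
  sq : ∃ d ∈ Δ, ∃ v, v * v = d
  cent : ∀ i s, s * s = 1 → s ≠ 1 → ∀ g, Commute g (φ (Pi.mulSingle i s)) → g ∈ H
  ti : ∀ i, ∀ d ∈ Δ, UF H (φ (Pi.mulSingle i d))
  fix : ∀ y ∈ H, y * y = 1 → ∀ π θ, Acts φ y π θ → ∀ i, π i = i → ∃ d ∈ Δ, Commute y (φ (Pi.mulSingle i d))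

variable {H : Subgroup G} {φ : (ι → S) →* G} {Δ : Set S}

theorem Acts.single {h : G} {π : Equiv.Perm ι} {θ : ι → S ≃* S} (a : Acts φ h π θ) (i : ι) (s : S) :
    h * φ (Pi.mulSingle i s) * h⁻¹ = φ (Pi.mulSingle (π i) (θ (π i) s)) := by
  rw [a]
  congr 1
  funext j
  by_cases hj : j = π i
  · subst hj; simp
  · rw [Pi.mulSingle_eq_of_ne hj, Pi.mulSingle_eq_of_ne (fun h => hj (by rw [← h]; simp)), map_one]

theorem Acts.sq {h : G} {π : Equiv.Perm ι} {θ : ι → S ≃* S} (a : Acts φ h π θ) :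
    Acts φ (h * h) (π * π) (fun j => (θ (π.symm j)).trans (θ j)) := by
  intro f
  have : h * h * φ f * (h * h)⁻¹ = h * (h * φ f * h⁻¹) * h⁻¹ := by group
  rw [this, a, a]
  rfl

theorem single_sq {i : ι} {s : S} (h : s * s = 1) :
    (Pi.mulSingle i s : ι → S) * Pi.mulSingle i s = 1 := by
  rw [← Pi.mulSingle_mul, h, Pi.mulSingle_one]

theorem comm_single {i j : ι} (hij : i ≠ j) (a b : S) :
    Commute (Pi.mulSingle i a : ι → S) (Pi.mulSingle j b) := by
  funext k
  rw [Pi.mul_apply, Pi.mul_apply]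
  by_cases h : k = i
  · subst h; rw [Pi.mulSingle_eq_of_ne hij, mul_one, one_mul]
  · rw [Pi.mulSingle_eq_of_ne h, mul_one, one_mul]

theorem single_inj {i j : ι} {s t : S} (hs : s ≠ 1) (h : (Pi.mulSingle i s : ι → S) = Pi.mulSingle j t) :
    i = j ∧ s = t := by
  have h1 := congrFun h i
  rw [Pi.mulSingle_eq_same] at h1
  by_cases hij : i = j
  · subst hij; exact ⟨rfl, by simpa using h1⟩
  · rw [Pi.mulSingle_eq_of_ne hij] at h1; exact absurd h1 hs

theorem prod_sq {i j : ι} (hij : i ≠ j) {a b : S} (ha : a * a = 1) (hb : b * b = 1) :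
    ((Pi.mulSingle i a : ι → S) * Pi.mulSingle j b) * ((Pi.mulSingle i a : ι → S) * Pi.mulSingle j b) = 1 := by
  have h := comm_single hij a b
  calc ((Pi.mulSingle i a : ι → S) * Pi.mulSingle j b) * ((Pi.mulSingle i a : ι → S) * Pi.mulSingle j b)
      = (Pi.mulSingle i a : ι → S) * (Pi.mulSingle j b * Pi.mulSingle i a) * Pi.mulSingle j b := by group
    _ = (Pi.mulSingle i a : ι → S) * (Pi.mulSingle i a * Pi.mulSingle j b) * Pi.mulSingle j b := by rw [h.eq]
    _ = ((Pi.mulSingle i a : ι → S) * Pi.mulSingle i a) * (Pi.mulSingle j b * Pi.mulSingle j b) := by group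
    _ = 1 := by rw [single_sq ha, single_sq hb, one_mul]

variable [Finite G]

/-- Centraliser of a product of involutions of two slots. -/
theorem two (D : Data H φ Δ) (hZ : ZStar.{u}) {i j : ι} (hij : i ≠ j) {a b : S} (ha : a * a = 1) (ha1 : a ≠ 1)
    (hb : b * b = 1) (hb1 : b ≠ 1) (hu : UF H (φ (Pi.mulSingle i a))) :
    ∀ g, Commute g (φ (Pi.mulSingle i a * Pi.mulSingle j b)) → g ∈ H := by
  obtain ⟨e, he, f, hf, hef, hc, hea, hfa⟩ := D.four a ha ha1
  have hne : ∀ (i : ι) (s : S), s * s = 1 → s ≠ 1 → φ (Pi.mulSingle i s) ≠ 1 := by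
    intro i s h1 h2 h3
    rw [← map_one φ] at h3
    have := D.inj _ _ (single_sq h1) (one_mul _) h3
    exact h2 (by simpa using congrFun this i)
  intro g
  rw [map_mul]
  refine centr_two hZ H (a := φ (Pi.mulSingle i a)) (b := φ (Pi.mulSingle j b)) (e := φ (Pi.mulSingle i e))
    (f := φ (Pi.mulSingle i f)) ?_ (hne i a ha ha1) ?_ (hne j b hb hb1) ((comm_single hij a b).map φ)
    (D.mem _) (D.mem _) hu ?_ ?_ ?_ ?_ (D.mem _) (D.mem _) (D.ti i e he) (D.ti i f hf) ?_ ?_ ?_ g
  · rw [← map_mul, single_sq ha, map_one]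
  · rw [← map_mul, single_sq hb, map_one]
  · intro g hg hgH
    obtain ⟨π, θ, hA⟩ := D.perm g (hu g hgH)
    have h1 : g * (φ (Pi.mulSingle i a) * φ (Pi.mulSingle j b)) * g⁻¹ =
        φ (Pi.mulSingle i a) * φ (Pi.mulSingle j b) := by rw [hg.eq, mul_inv_cancel_right]
    have h2 : (g * φ (Pi.mulSingle i a) * g⁻¹) * (g * φ (Pi.mulSingle j b) * g⁻¹) =
        φ (Pi.mulSingle i a) * φ (Pi.mulSingle j b) := by rw [← h1]; group
    rw [hA.single, hA.single, ← map_mul, ← map_mul] at h2
    have hπ : π i ≠ π j := fun h => hij (π.injective h)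
    have h3 := D.inj _ _ (prod_sq hπ (by rw [← map_mul, ha, map_one]) (by rw [← map_mul, hb, map_one]))
      (prod_sq hij ha hb) h2
    have h4 := congrFun h3 (π i)
    rw [Pi.mul_apply, Pi.mul_apply, Pi.mulSingle_eq_same, Pi.mulSingle_eq_of_ne hπ, mul_one] at h4
    have h5 : θ (π i) a ≠ 1 := by simpa using ha1
    rw [hA.single]
    by_cases h6 : π i = i
    · left
      rw [h6] at h4 ⊢
      rw [Pi.mulSingle_eq_same, Pi.mulSingle_eq_of_ne hij, mul_one] at h4
      rw [h4]
    · by_cases h7 : π i = j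
      · right
        rw [h7] at h4 ⊢
        rw [Pi.mulSingle_eq_same, Pi.mulSingle_eq_of_ne (Ne.symm hij), one_mul] at h4
        rw [h4]
      · exfalso
        rw [Pi.mulSingle_eq_of_ne h6, Pi.mulSingle_eq_of_ne h7, mul_one] at h4
        exact h5 h4
  · rw [← map_mul, single_sq (D.inv e he).1, map_one]
  · rw [← map_mul, single_sq (D.inv f hf).1, map_one]
  · show φ _ * φ _ = φ _ * φ _
    rw [← map_mul, ← map_mul, ← Pi.mulSingle_mul, ← Pi.mulSingle_mul, hc.eq]
  · rw [← map_mul, ← Pi.mulSingle_mul]; exact D.ti i _ hef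
  · have h1 : Commute (φ (Pi.mulSingle i e)) (φ (Pi.mulSingle i a)) := by
      show φ _ * φ _ = φ _ * φ _
      rw [← map_mul, ← map_mul, ← Pi.mulSingle_mul, ← Pi.mulSingle_mul, hea.eq]
    exact h1.mul_right ((comm_single hij e b).map φ)
  · have h1 : Commute (φ (Pi.mulSingle i f)) (φ (Pi.mulSingle i a)) := by
      show φ _ * φ _ = φ _ * φ _
      rw [← map_mul, ← map_mul, ← Pi.mulSingle_mul, ← Pi.mulSingle_mul, hfa.eq]
    exact h1.mul_right ((comm_single hij f b).map φ)

/-- conjugating back -/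
theorem comm_conj {g x h : G} (hc : Commute (g * x * g⁻¹) h) : Commute (g⁻¹ * h * g) x := by
  have h1 : (g * x * g⁻¹) * h = h * (g * x * g⁻¹) := hc
  show g⁻¹ * h * g * x = x * (g⁻¹ * h * g)
  calc g⁻¹ * h * g * x = g⁻¹ * (h * (g * x * g⁻¹)) * g := by group
    _ = g⁻¹ * ((g * x * g⁻¹) * h) * g := by rw [h1]
    _ = x * (g⁻¹ * h * g) := by group

theorem comm_conj' {g x h : G} (hc : Commute (g⁻¹ * h * g) x) : Commute (g * x * g⁻¹) h := by
  have h1 : g⁻¹ * h * g * x = x * (g⁻¹ * h * g) := hc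
  show g * x * g⁻¹ * h = h * (g * x * g⁻¹)
  calc g * x * g⁻¹ * h = g * (x * (g⁻¹ * h * g)) * g⁻¹ := by group
    _ = g * (g⁻¹ * h * g * x) * g⁻¹ := by rw [h1]
    _ = h * (g * x * g⁻¹) := by group

/-- `h` of order 2 commutes with `x (h x h⁻¹)` if the factors commute. -/
theorem comm_pair {h x : G} (hh : h * h = 1) (hx : Commute x (h * x * h⁻¹)) : Commute h (x * (h * x * h⁻¹)) := by
  have hi : h⁻¹ = h := inv_eq_of_mul_eq_one_left hh
  show h * (x * (h * x * h⁻¹)) = x * (h * x * h⁻¹) * h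
  rw [hx.eq, hi]
  calc h * (h * x * h * x) = (h * h) * (x * h * x) := by group
    _ = x * h * x * (h * h) := by rw [hh, one_mul, mul_one]
    _ = (x * (h * x * h)) * h := by group
    _ = (h * x * h * x) * h := by rw [hi] at hx; rw [hx.eq]

/-- Involutions of a slot are UF. -/
theorem single_uf (D : Data H φ Δ) (hZ : ZStar.{u}) (i : ι) {s : S} (hs : s * s = 1) (hs1 : s ≠ 1) :
    UF H (φ (Pi.mulSingle i s)) := by
  intro g hg
  obtain ⟨π, θ, hA⟩ := D.perm _ hg
  have hh : (g * φ (Pi.mulSingle i s) * g⁻¹) * (g * φ (Pi.mulSingle i s) * g⁻¹) = 1 := by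
    have : (g * φ (Pi.mulSingle i s) * g⁻¹) * (g * φ (Pi.mulSingle i s) * g⁻¹) =
      g * (φ (Pi.mulSingle i s) * φ (Pi.mulSingle i s)) * g⁻¹ := by group
    rw [this, ← map_mul, single_sq hs, map_one]; simp
  by_cases h1 : π i = i
  · obtain ⟨d, hd, hc⟩ := D.fix _ hg hh π θ hA i h1
    have h2 := D.cent i s hs hs1 _ (comm_conj hc)
    have h3 := D.ti i d hd g⁻¹ (by simpa using h2)
    simpa using h3
  · obtain ⟨d, hd, -⟩ := D.sq
    obtain ⟨hd2, hd1⟩ := D.inv d hd
    have hx : Commute (φ (Pi.mulSingle i d)) ((g * φ (Pi.mulSingle i s) * g⁻¹) * φ (Pi.mulSingle i d) *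
        (g * φ (Pi.mulSingle i s) * g⁻¹)⁻¹) := by
      rw [hA.single]; exact (comm_single (Ne.symm h1) _ _).map φ
    have h2 := comm_pair hh hx
    rw [hA.single, ← map_mul] at h2
    have h3 := D.cent i s hs hs1 _ (comm_conj h2)
    obtain ⟨π', θ', hA'⟩ := D.perm _ h3
    have hθ2 : θ (π i) d * θ (π i) d = 1 := by rw [← map_mul, hd2, map_one]
    have hθ1 : θ (π i) d ≠ 1 := by simpa using hd1
    have hyy := prod_sq (Ne.symm h1) hd2 hθ2
    have h4 : (g⁻¹ * φ (Pi.mulSingle i d * Pi.mulSingle (π i) (θ (π i) d)) * g) *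
        (g⁻¹ * φ (Pi.mulSingle i d * Pi.mulSingle (π i) (θ (π i) d)) * g) = 1 := by
      have : (g⁻¹ * φ (Pi.mulSingle i d * Pi.mulSingle (π i) (θ (π i) d)) * g) *
        (g⁻¹ * φ (Pi.mulSingle i d * Pi.mulSingle (π i) (θ (π i) d)) * g) =
        g⁻¹ * (φ (Pi.mulSingle i d * Pi.mulSingle (π i) (θ (π i) d)) *
          φ (Pi.mulSingle i d * Pi.mulSingle (π i) (θ (π i) d))) * g := by group
      rw [this, ← map_mul, hyy, map_one]; simp
    have h5 : π' i = i := by
      have h6 := hA'.single i s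
      rw [(comm_conj h2).eq, mul_inv_cancel_right] at h6
      have h7 := D.inj _ _ (single_sq hs) (single_sq (by rw [← map_mul, hs, map_one])) h6
      exact (single_inj hs1 h7).1.symm
    obtain ⟨d', hd', hc⟩ := D.fix _ h3 h4 π' θ' hA' i h5
    have h8 := two D hZ (Ne.symm h1) hd2 hd1 hθ2 hθ1 (D.ti i d hd) _ (comm_conj' hc)
    exact D.ti i d' hd' g h8

/-- Support. -/
def supp [Fintype ι] [DecidableEq S] (f : ι → S) : Finset ι := Finset.univ.filter (fun i => f i ≠ 1)

/-- The subgroup of all functions with values `1` or `f i`. -/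
def pw (f : ι → S) (hf : f * f = 1) : Subgroup (ι → S) where
  carrier := {k | ∀ i, k i = 1 ∨ k i = f i}
  one_mem' := fun i => Or.inl rfl
  mul_mem' := by
    intro a b ha hb i
    have h := congrFun hf i
    rw [Pi.mul_apply] at h ⊢
    rcases ha i with h1 | h1 <;> rcases hb i with h2 | h2 <;> rw [h1, h2] <;> simp [h]
  inv_mem' := by
    intro a ha i
    have h := congrFun hf i
    rw [Pi.inv_apply]
    rcases ha i with h1 | h1
    · left; rw [h1, inv_one]
    · right; rw [h1]; exact inv_eq_of_mul_eq_one_left h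

theorem mem_pw {f : ι → S} {hf : f * f = 1} {k : ι → S} : k ∈ pw f hf ↔ ∀ i, k i = 1 ∨ k i = f i := Iff.rfl

theorem pw_sq {f : ι → S} {hf : f * f = 1} {k : ι → S} (hk : k ∈ pw f hf) : k * k = 1 := by
  funext i
  have h := congrFun hf i
  rw [Pi.mul_apply] at h ⊢
  rcases hk i with h1 | h1 <;> rw [h1]
  · simp
  · exact h

theorem pw_comm {f : ι → S} {hf : f * f = 1} {k : ι → S} (hk : k ∈ pw f hf) : Commute k f := by
  funext i
  rw [Pi.mul_apply, Pi.mul_apply]
  rcases hk i with h1 | h1 <;> rw [h1]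
  rw [one_mul, mul_one]

theorem single_mem_pw {f : ι → S} {hf : f * f = 1} (i : ι) : Pi.mulSingle i (f i) ∈ pw f hf := by
  intro j
  by_cases h : j = i
  · subst h; right; simp
  · left; exact Pi.mulSingle_eq_of_ne h _

/-- Every involution of the image is UF. -/
theorem all_uf [Fintype ι] (D : Data H φ Δ) (hZ : ZStar.{u}) (hS : StrClosed.{u}) (hE : SEConj.{u}) :
    ∀ (n : ℕ) (f : ι → S), f * f = 1 → f ≠ 1 → Nat.card {i // f i ≠ 1} = n → UF H (φ f) := by
  classical
  intro n
  induction n using Nat.strong_induction_on with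
  | _ n ih =>
  intro f hf hf1 hn
  have hfi : ∀ i, f i * f i = 1 := fun i => congrFun hf i
  obtain ⟨i, hi⟩ : ∃ i, f i ≠ 1 := by
    by_contra hcon
    push Not at hcon
    exact hf1 (funext hcon)
  by_cases hcase1 : f = Pi.mulSingle i (f i)
  · rw [hcase1]; exact single_uf D hZ i (hfi i) hi
  obtain ⟨j, hji, hj⟩ : ∃ j, j ≠ i ∧ f j ≠ 1 := by
    by_contra hcon
    push Not at hcon
    apply hcase1
    funext k
    by_cases hk : k = i
    · subst hk; simp
    · rw [Pi.mulSingle_eq_of_ne hk]; exact hcon k hk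
  -- the smaller elements
  have hsmall : ∀ k ∈ pw f hf, k ≠ 1 → k ≠ f → UF H (φ k) := by
    intro k hk hk1 hkf
    refine ih (Nat.card {i // k i ≠ 1}) ?_ k (pw_sq hk) hk1 rfl
    rw [← hn]
    obtain ⟨l, hl⟩ : ∃ l, k l ≠ f l := by
      by_contra hcon
      push Not at hcon
      exact hkf (funext hcon)
    have hl1 : k l = 1 := (hk l).resolve_right hl
    have hsub : ∀ m, k m ≠ 1 → f m ≠ 1 := by
      intro m hm hfm
      rcases hk m with h1 | h1
      · exact hm h1
      · exact hm (by rw [h1, hfm])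
    rw [Nat.card_eq_fintype_card, Nat.card_eq_fintype_card]
    refine Fintype.card_lt_of_injective_not_surjective
      (fun m : {i // k i ≠ 1} => (⟨m.1, hsub m.1 m.2⟩ : {i // f i ≠ 1})) ?_ ?_
    · intro a b hab
      exact Subtype.ext (congrArg (fun z => z.1) hab)
    · intro hsur
      obtain ⟨m, hm⟩ := hsur ⟨l, fun h => hl (by rw [hl1, h])⟩
      have : m.1 = l := congrArg Subtype.val hm
      exact m.2 (by rw [this, hl1])
  have hcentacts : ∀ g ∈ H, Commute g (φ f) → ∃ (π : Equiv.Perm ι) (θ : ι → S ≃* S), Acts φ g π θ ∧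
      ∀ j, θ j (f (π.symm j)) = f j := by
    intro g hg hc
    obtain ⟨π, θ, hA⟩ := D.perm g hg
    refine ⟨π, θ, hA, ?_⟩
    have h1 := hA f
    rw [hc.eq, mul_inv_cancel_right] at h1
    have h2 := D.inj _ _ hf (by
      funext j
      show θ j (f (π.symm j)) * θ j (f (π.symm j)) = 1
      rw [← map_mul, hfi, map_one]) h1
    intro j
    exact (congrFun h2 j).symm
  by_cases hcase2 : f = Pi.mulSingle i (f i) * Pi.mulSingle j (f j)
  · -- two slots
    have hui := single_uf D hZ i (hfi i) hi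
    have hC : ∀ g, Commute g (φ f) → g ∈ H := by
      intro g hg
      rw [hcase2] at hg
      exact two D hZ hji.symm (hfi i) hi (hfi j) hj hui g hg
    intro g hg
    obtain ⟨π, θ, hA⟩ := D.perm _ hg
    have hh : (g * φ f * g⁻¹) * (g * φ f * g⁻¹) = 1 := by
      have : (g * φ f * g⁻¹) * (g * φ f * g⁻¹) = g * (φ f * φ f) * g⁻¹ := by group
      rw [this, ← map_mul, hf, map_one]; simp
    by_cases h1 : π i = i
    · obtain ⟨d, hd, hc⟩ := D.fix _ hg hh π θ hA i h1
      have h2 := hC _ (comm_conj hc)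
      have h3 := D.ti i d hd g⁻¹ (by simpa using h2)
      simpa using h3
    · obtain ⟨d, hd, v, hv⟩ := D.sq
      obtain ⟨hd2, hd1⟩ := D.inv d hd
      have hx : Commute (φ (Pi.mulSingle i v)) ((g * φ f * g⁻¹) * φ (Pi.mulSingle i v) *
          (g * φ f * g⁻¹)⁻¹) := by
        rw [hA.single]; exact (comm_single (Ne.symm h1) _ _).map φ
      have h2 := comm_pair hh hx
      rw [hA.single] at h2 hx
      set yv := φ (Pi.mulSingle i v) * φ (Pi.mulSingle (π i) (θ (π i) v)) with hyv
      have hyd : yv * yv = φ (Pi.mulSingle i d * Pi.mulSingle (π i) (θ (π i) d)) := by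
        have : yv * yv = (φ (Pi.mulSingle i v) * φ (Pi.mulSingle i v)) *
            (φ (Pi.mulSingle (π i) (θ (π i) v)) * φ (Pi.mulSingle (π i) (θ (π i) v))) := by
          rw [hyv]
          calc _ = φ (Pi.mulSingle i v) * (φ (Pi.mulSingle (π i) (θ (π i) v)) * φ (Pi.mulSingle i v)) *
                φ (Pi.mulSingle (π i) (θ (π i) v)) := by group
            _ = φ (Pi.mulSingle i v) * (φ (Pi.mulSingle i v) * φ (Pi.mulSingle (π i) (θ (π i) v))) *
                φ (Pi.mulSingle (π i) (θ (π i) v)) := by rw [hx.eq]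
            _ = _ := by group
        rw [this, ← map_mul, ← map_mul, ← map_mul, ← Pi.mulSingle_mul, ← Pi.mulSingle_mul, ← map_mul, hv]
      have hyvH : g⁻¹ * yv * g ∈ H := hC _ (comm_conj h2)
      obtain ⟨π', θ', hA', hθ'⟩ := hcentacts _ hyvH (comm_conj h2)
      have hpi : ∀ k, f k ≠ 1 → f (π' k) ≠ 1 := by
        intro k hk h3
        have h4 := hθ' (π' k)
        rw [h3, Equiv.symm_apply_apply] at h4
        exact hk (by simpa using h4)
      have hij : ∀ k, f k ≠ 1 → k = i ∨ k = j := by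
        intro k hk
        by_contra hcon
        push Not at hcon
        rw [hcase2] at hk
        apply hk
        rw [Pi.mul_apply, Pi.mulSingle_eq_of_ne hcon.1, Pi.mulSingle_eq_of_ne hcon.2, one_mul]
      have h5 : (π' * π') i = i := by
        show π' (π' i) = i
        rcases hij _ (hpi i hi) with h6 | h6
        · rw [h6, h6]
        · rcases hij _ (hpi j hj) with h7 | h7
          · rw [h6, h7]
          · exfalso
            exact hji (π'.injective (by rw [h6, h7]))
      have hθ2 : θ (π i) d * θ (π i) d = 1 := by rw [← map_mul, hd2, map_one]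
      have hθ1 : θ (π i) d ≠ 1 := by simpa using hd1
      have hyy := prod_sq (Ne.symm h1) hd2 hθ2
      have hydH : g⁻¹ * (yv * yv) * g ∈ H := by
        have : g⁻¹ * (yv * yv) * g = (g⁻¹ * yv * g) * (g⁻¹ * yv * g) := by group
        rw [this]; exact H.mul_mem hyvH hyvH
      have hA2 : Acts φ (g⁻¹ * (yv * yv) * g) (π' * π') (fun j => (θ' (π'.symm j)).trans (θ' j)) := by
        have : g⁻¹ * (yv * yv) * g = (g⁻¹ * yv * g) * (g⁻¹ * yv * g) := by group
        rw [this]; exact hA'.sq
      have h8 : (g⁻¹ * (yv * yv) * g) * (g⁻¹ * (yv * yv) * g) = 1 := by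
        have : (g⁻¹ * (yv * yv) * g) * (g⁻¹ * (yv * yv) * g) = g⁻¹ * ((yv * yv) * (yv * yv)) * g := by group
        rw [this, hyd, ← map_mul, hyy, map_one]; simp
      obtain ⟨d', hd', hc⟩ := D.fix _ hydH h8 _ _ hA2 i h5
      have h9 := comm_conj' hc
      rw [hyd] at h9
      exact D.ti i d' hd' g (two D hZ (Ne.symm h1) hd2 hd1 hθ2 hθ1 (D.ti i d hd) _ h9)
  · -- at least three slots
    obtain ⟨k, hki, hkj, hk⟩ : ∃ k, k ≠ i ∧ k ≠ j ∧ f k ≠ 1 := by
      by_contra hcon
      push Not at hcon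
      apply hcase2
      funext k
      rw [Pi.mul_apply]
      by_cases hk : k = i
      · subst hk; rw [Pi.mulSingle_eq_same, Pi.mulSingle_eq_of_ne hji.symm, mul_one]
      · by_cases hk' : k = j
        · subst hk'; rw [Pi.mulSingle_eq_same, Pi.mulSingle_eq_of_ne hk, one_mul]
        · rw [Pi.mulSingle_eq_of_ne hk, Pi.mulSingle_eq_of_ne hk', one_mul]; exact hcon k hk hk'
    have hsi : ∀ l, f l ≠ 1 → (Pi.mulSingle l (f l) : ι → S) ≠ 1 := by
      intro l hl h; exact hl (by simpa using congrFun h l)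
    have hsf : ∀ l l', l' ≠ l → f l' ≠ 1 → (Pi.mulSingle l (f l) : ι → S) ≠ f := by
      intro l l' hl hl' h
      apply hl'
      rw [← congrFun h l', Pi.mulSingle_eq_of_ne hl]
    have hinj : ∀ a b : ι → S, a ∈ pw f hf → b ∈ pw f hf → φ a = φ b → a = b :=
      fun a b ha hb h => D.inj a b (pw_sq ha) (pw_sq hb) h
    have hone : (1 : ι → S) ∈ pw f hf := one_mem _
    have hfm : f ∈ pw f hf := fun i => Or.inr rfl
    have hC : ∀ g, Commute g (φ f) → g ∈ H := by
      refine centr_many hS hE H (s := φ f) (by rw [← map_mul, hf, map_one]) ((pw f hf).map φ) ?_ ⟨f, hfm, rfl⟩ ?_ ?_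
        ?_ ?_ (a₁ := φ (Pi.mulSingle i (f i))) (a₂ := φ (Pi.mulSingle j (f j))) ⟨_, single_mem_pw i, rfl⟩
        ⟨_, single_mem_pw j, rfl⟩ ?_ ?_ ?_ ?_ ?_
      · rintro _ ⟨a, -, rfl⟩; exact D.mem a
      · rintro _ ⟨a, ha, rfl⟩; rw [← map_mul, pw_sq ha, map_one]
      · rintro _ ⟨a, ha, rfl⟩; exact (pw_comm ha).map φ
      · rintro _ ⟨a, ha, rfl⟩ h1 h2
        exact hsmall a ha (fun h => h1 (by rw [h, map_one])) (fun h => h2 (by rw [h]))
      · rintro g hg hgc _ ⟨a, ha, rfl⟩
        obtain ⟨π, θ, hA, hθ⟩ := hcentacts g hg hgc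
        refine ⟨_, ?_, (hA a).symm⟩
        intro l
        show θ l (a (π.symm l)) = 1 ∨ θ l (a (π.symm l)) = f l
        rcases ha (π.symm l) with h1 | h1
        · left; rw [h1, map_one]
        · right; rw [h1, hθ]
      · intro h; rw [← map_one φ] at h; exact hsi i hi (hinj _ _ (single_mem_pw i) hone h)
      · intro h; exact hsf i j hji hj (hinj _ _ (single_mem_pw i) hfm h)
      · intro h; rw [← map_one φ] at h; exact hsi j hj (hinj _ _ (single_mem_pw j) hone h)
      · intro h; exact hsf j i hji.symm hi (hinj _ _ (single_mem_pw j) hfm h)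
      · intro g hg hgc hor
        obtain ⟨π, θ, hA, hθ⟩ := hcentacts g hg hgc
        have hθsq : θ (π i) (f i) * θ (π i) (f i) = 1 := by rw [← map_mul, hfi, map_one]
        have hθ1 : θ (π i) (f i) ≠ 1 := by simpa using hi
        have hπ : π i = j := by
          rw [hA.single] at hor
          rcases hor with h1 | h1
          · exact (single_inj hθ1 (D.inj _ _ (single_sq hθsq) (single_sq (hfi j)) h1)).1
          · exfalso
            rw [← map_mul] at h1
            have h2 := D.inj _ _ (single_sq hθsq) (pw_sq (mul_mem (single_mem_pw (hf := hf) j) hfm)) h1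
            have h3 := congrFun h2 i
            have h4 := congrFun h2 k
            rw [Pi.mul_apply, Pi.mulSingle_eq_of_ne hji.symm, one_mul] at h3
            rw [Pi.mul_apply, Pi.mulSingle_eq_of_ne hkj, one_mul] at h4
            have h5 : i = π i := by
              by_contra hne
              rw [Pi.mulSingle_eq_of_ne hne] at h3
              exact hi h3.symm
            have h6 : k = π i := by
              by_contra hne
              rw [Pi.mulSingle_eq_of_ne hne] at h4
              exact hk h4.symm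
            exact hki (by rw [h6, ← h5])
        obtain ⟨e, he, hef, hc⟩ : ∃ e ∈ Δ, e ≠ f i ∧ Commute e (f i) := by
          obtain ⟨e, he, e', he', hee, -, hc, hc'⟩ := D.four (f i) (hfi i) hi
          by_cases h1 : e = f i
          · refine ⟨e', he', ?_, hc'⟩
            intro h2
            apply (D.inv _ hee).2
            rw [h1, h2, hfi]
          · exact ⟨e, he, h1, hc⟩
        obtain ⟨he2, he1⟩ := D.inv e he
        have heinv : (φ (Pi.mulSingle i e))⁻¹ = φ (Pi.mulSingle i e) := by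
          apply inv_eq_of_mul_eq_one_left; rw [← map_mul, single_sq he2, map_one]
        have hθe : θ (π i) e * θ (π i) e = 1 := by rw [← map_mul, he2, map_one]
        refine ⟨φ (Pi.mulSingle i e), D.mem _, ?_, ?_, ?_⟩
        · refine Commute.map ?_ φ
          funext l
          rw [Pi.mul_apply, Pi.mul_apply]
          by_cases hl : l = i
          · subst hl; rw [Pi.mulSingle_eq_same]; exact hc
          · rw [Pi.mulSingle_eq_of_ne hl, one_mul, mul_one]
        · rw [heinv, hA.single, ← map_mul]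
          rintro ⟨m, hm, h1⟩
          have h2 := D.inj _ _ (pw_sq hm) (prod_sq (by rw [hπ]; exact hji.symm) he2 hθe) h1
          have h3 := congrFun h2 i
          rw [Pi.mul_apply, Pi.mulSingle_eq_same, hπ, Pi.mulSingle_eq_of_ne hji.symm, mul_one] at h3
          rcases hm i with h4 | h4
          · exact he1 (by rw [← h3, h4])
          · exact hef (by rw [← h3, h4])
        · rw [heinv, hA.single, ← map_mul, ← map_mul, prod_sq (by rw [hπ]; exact hji.symm) he2 hθe, map_one]
    intro g hg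
    obtain ⟨π, θ, hA⟩ := D.perm _ hg
    have hh : (g * φ f * g⁻¹) * (g * φ f * g⁻¹) = 1 := by
      have : (g * φ f * g⁻¹) * (g * φ f * g⁻¹) = g * (φ f * φ f) * g⁻¹ := by group
      rw [this, ← map_mul, hf, map_one]; simp
    by_cases h1 : π i = i
    · obtain ⟨d, hd, hc⟩ := D.fix _ hg hh π θ hA i h1
      have h2 := hC _ (comm_conj hc)
      have h3 := D.ti i d hd g⁻¹ (by simpa using h2)
      simpa using h3
    · obtain ⟨d, hd, -⟩ := D.sq
      obtain ⟨hd2, hd1⟩ := D.inv d hd
      have hx : Commute (φ (Pi.mulSingle i d)) ((g * φ f * g⁻¹) * φ (Pi.mulSingle i d) *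
          (g * φ f * g⁻¹)⁻¹) := by
        rw [hA.single]; exact (comm_single (Ne.symm h1) _ _).map φ
      have h2 := comm_pair hh hx
      rw [hA.single, ← map_mul] at h2
      have h3 := hC _ (comm_conj h2)
      have hθ2 : θ (π i) d * θ (π i) d = 1 := by rw [← map_mul, hd2, map_one]
      have hθ1 : θ (π i) d ≠ 1 := by simpa using hd1
      have huf : UF H (φ (Pi.mulSingle i d * Pi.mulSingle (π i) (θ (π i) d))) := by
        refine ih (Nat.card {l // (Pi.mulSingle i d * Pi.mulSingle (π i) (θ (π i) d) : ι → S) l ≠ 1}) ?_ _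
          (prod_sq (Ne.symm h1) hd2 hθ2) ?_ rfl
        · have h4 : Nat.card {l // (Pi.mulSingle i d * Pi.mulSingle (π i) (θ (π i) d) : ι → S) l ≠ 1} ≤ 2 := by
            rw [Nat.card_eq_fintype_card, Fintype.card_subtype]
            refine (Finset.card_le_card (t := {i, π i}) ?_).trans Finset.card_le_two
            intro l hl
            rw [Finset.mem_filter] at hl
            by_contra hcon
            simp only [Finset.mem_insert, Finset.mem_singleton, not_or] at hcon
            apply hl.2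
            rw [Pi.mul_apply, Pi.mulSingle_eq_of_ne hcon.1, Pi.mulSingle_eq_of_ne hcon.2, one_mul]
          have h5 : 3 ≤ n := by
            rw [← hn, Nat.card_eq_fintype_card, Fintype.card_subtype]
            have : ({i, j, k} : Finset ι) ⊆ Finset.univ.filter (fun l => f l ≠ 1) := by
              intro l hl
              simp only [Finset.mem_insert, Finset.mem_singleton] at hl
              rw [Finset.mem_filter]
              rcases hl with rfl | rfl | rfl <;> exact ⟨Finset.mem_univ _, by assumption⟩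
            refine le_trans (le_of_eq ?_) (Finset.card_le_card this)
            rw [Finset.card_eq_three.2 ⟨i, j, k, hji.symm, hki.symm, hkj.symm, rfl⟩]
          omega
        · intro h
          have := congrFun h i
          rw [Pi.mul_apply, Pi.mulSingle_eq_same, Pi.mulSingle_eq_of_ne (Ne.symm h1), mul_one] at this
          exact hd1 this
      have h4 := huf g⁻¹ (by simpa using h3)
      simpa using h4

/-- **Main theorem (prime 2).** -/
theorem main [Finite ι] (D : Data H φ Δ) (hZ : ZStar.{u}) (hS : StrClosed.{u}) (hE : SEConj.{u}) {i j : ι}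
    (hij : i ≠ j) : H = ⊤ := by
  classical
  have := Fintype.ofFinite ι
  obtain ⟨d, hd, -⟩ := D.sq
  obtain ⟨hd2, hd1⟩ := D.inv d hd
  have hf := prod_sq hij hd2 hd2
  refine final hS hE H φ.range ?_ ?_ ?_ ((pw (Pi.mulSingle i d * Pi.mulSingle j d) hf).map φ) ?_ ?_
    (x := φ (Pi.mulSingle i d)) (y := φ (Pi.mulSingle i d * Pi.mulSingle j d)) ?_ ?_ ?_ ?_ ?_
  · rintro _ ⟨a, rfl⟩; exact D.mem a
  · rintro h hh _ ⟨a, rfl⟩
    obtain ⟨π, θ, hA⟩ := D.perm h hh
    exact ⟨_, (hA a).symm⟩
  · rintro _ ⟨a, rfl⟩ h1 h2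
    obtain ⟨a', ha', h3⟩ := D.lift a h1
    rw [← h3]
    exact all_uf D hZ hS hE _ a' ha' (fun h => h2 (by rw [← h3, h, map_one])) rfl
  · rintro _ ⟨a, -, rfl⟩; exact ⟨a, rfl⟩
  · rintro _ ⟨a, ha, rfl⟩; rw [← map_mul, pw_sq ha, map_one]
  · refine ⟨Pi.mulSingle i d, ?_, rfl⟩
    intro l
    by_cases hl : l = i
    · subst hl; right; rw [Pi.mul_apply, Pi.mulSingle_eq_same, Pi.mulSingle_eq_of_ne hij, mul_one]
    · left; exact Pi.mulSingle_eq_of_ne hl _
  · exact ⟨_, fun l => Or.inr rfl, rfl⟩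
  · intro h
    rw [← map_one φ] at h
    have := D.inj _ _ (single_sq hd2) (one_mul _) h
    exact hd1 (by simpa using congrFun this i)
  · intro h
    rw [← map_one φ] at h
    have := congrFun (D.inj _ _ hf (one_mul _) h) i
    rw [Pi.mul_apply, Pi.mulSingle_eq_same, Pi.mulSingle_eq_of_ne hij, mul_one] at this
    exact hd1 this
  · intro g hg h
    obtain ⟨π, θ, hA⟩ := D.perm g hg
    rw [hA.single] at h
    have h1 := D.inj _ _ (single_sq (by rw [← map_mul, hd2, map_one])) hf h
    have h2 := congrFun h1 i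
    have h3 := congrFun h1 j
    rw [Pi.mul_apply, Pi.mulSingle_eq_same, Pi.mulSingle_eq_of_ne hij, mul_one] at h2
    rw [Pi.mul_apply, Pi.mulSingle_eq_same, Pi.mulSingle_eq_of_ne hij.symm, one_mul] at h3
    have h4 : i = π i := by
      by_contra hne
      rw [Pi.mulSingle_eq_of_ne hne] at h2
      exact hd1 h2.symm
    have h5 : j = π i := by
      by_contra hne
      rw [Pi.mulSingle_eq_of_ne hne] at h3
      exact hd1 h3.symm
    exact hij (by rw [h4, ← h5])

end

end Cfsg.Agent.H205.EvenTI
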